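import Mathlib
import Cfsg.Agent.Base
import Cfsg.Agent.Lib.GW.DGrp0
import Cfsg.Agent.Lib.GW.DStruct
import Cfsg.Agent.Lib.GW.Arrow

/-!
# Central covers of odd degree: transfer of involutions and four-groups
-/

set_option autoImplicit false
set_option linter.unusedSectionVars false

namespace H77.GW

open Cfsg H45 H69 H23.GW Subgroup
open scoped commutatorElement

universe u

variable {G : Type u} [Group G] [Finite G] {L : Type*} [Group L]

/-- `f` maps `E` onto `L` with kernel the centre of `E`, which has odd order. -/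
structure Cov (E : Subgroup G) (f : E →* L) : Prop where
  surj : Function.Surjective f
  ker : kerOf f = Zc E
  odd : Odd (Nat.card (Zc E))

theorem map_center_eq (E : Subgroup G) : (center E).map E.subtype = Zc E := by
  ext x
  constructor
  · rintro ⟨y, hy, rfl⟩
    exact ⟨y.2, fun z hz => congrArg Subtype.val (mem_center_iff.mp hy ⟨z, hz⟩)⟩
  · rintro ⟨h1, h2⟩
    exact ⟨⟨x, h1⟩, mem_center_iff.mpr fun z => Subtype.ext (h2 z z.2), rfl⟩

theorem sup_zpowers_eq_closure (a b : L) : zpowers a ⊔ zpowers b = closure {a, b} := by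
  rw [zpowers_eq_closure, zpowers_eq_closure, ← Subgroup.closure_union]; rfl

theorem odd_center_lay {X : Subgroup G} (hX : Known X) : Odd (Nat.card (Zc (Lay X))) := by
  by_cases hE : Lay X = ⊥
  · rw [show Zc (Lay X) = ⊥ from eq_bot_iff.mpr (inf_le_left.trans hE.le), card_bot]
    exact odd_one
  have h1 := hX _ (Lay_le X) (Lay_perfect X) hE
  have := H29.isSimpleGroup_of_isL h1
  have : Group.IsPerfect (Lay X) := Subgroup.isPerfect_iff.mpr (Lay_perfect X)
  have h2 : center (Lay X) ≤ oddCore (Lay X) := by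
    intro z hz
    rw [← QuotientGroup.eq_one_iff, ← mem_bot, ← H29.center_eq_bot_of_simple, mem_center_iff]
    intro y
    obtain ⟨y, rfl⟩ := QuotientGroup.mk_surjective y
    rw [← QuotientGroup.mk_mul, ← QuotientGroup.mk_mul, mem_center_iff.mp hz]
  rw [← map_center_eq, card_map_of_injective (Lay X).subtype_injective]
  exact Odd.of_dvd_nat (H1.odd_card_oddCore) (card_dvd_of_le h2)

theorem exists_cov {X : Subgroup G} (hX : Known X) (e : Lay X ⧸ center (Lay X) ≃* L) :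
    ∃ f : Lay X →* L, Cov (Lay X) f := by
  refine ⟨e.toMonoidHom.comp (QuotientGroup.mk' _),
    e.surjective.comp (QuotientGroup.mk'_surjective _), ?_, odd_center_lay hX⟩
  rw [kerOf, ← map_center_eq, ← MonoidHom.comap_ker, (MonoidHom.ker_eq_bot_iff _).mpr e.injective,
    MonoidHom.comap_bot, QuotientGroup.ker_mk']

namespace Cov

variable {E : Subgroup G} {f : E →* L}

theorem conj (h : Cov E f) (c : L) : Cov E ((MulAut.conj c).toMonoidHom.comp f) := by
  refine ⟨(MulAut.conj c).surjective.comp h.surj, ?_, h.odd⟩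
  rw [← h.ker, kerOf, kerOf, ← MonoidHom.comap_ker,
    (MonoidHom.ker_eq_bot_iff _).mpr (MulAut.conj c).injective, MonoidHom.comap_bot]

theorem ap_conj_hom (c : L) {x : G} (hx : x ∈ E) :
    ap ((MulAut.conj c).toMonoidHom.comp f) x = c * ap f x * c⁻¹ := by
  rw [ap_of_mem _ hx, ap_of_mem _ hx]; rfl

theorem im_top (h : Cov E f) : im f E = ⊤ := by
  rw [im_dom, MonoidHom.range_eq_top.mpr h.surj]

theorem finite (h : Cov E f) : Finite L := Finite.of_surjective f h.surj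

theorem exists_ap (h : Cov E f) (s : L) : ∃ a ∈ E, ap f a = s := by
  obtain ⟨a, rfl⟩ := h.surj s
  exact ⟨a, a.2, ap_coe f a⟩

theorem ap_eq_one (h : Cov E f) {x : G} (hx : x ∈ E) : ap f x = 1 ↔ x ∈ Zc E := by
  rw [ap_eq_one_iff f hx, h.ker]

theorem ap_eq (h : Cov E f) {x y : G} (hx : x ∈ E) (hy : y ∈ E) :
    ap f x = ap f y ↔ x⁻¹ * y ∈ Zc E := by
  rw [ap_eq_ap_iff f hx hy, h.ker]

theorem card (h : Cov E f) : Nat.card E = Nat.card L * Nat.card (Zc E) := by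
  have h1 := card_morphpre f (L := ⊤) h.im_top.ge
  rwa [pre_top, card_top, h.ker, mul_comm] at h1

theorem eq_one_of_coprime (_h : Cov E f) {x : G} (hx : x ∈ Zc E) {d : ℕ}
    (hd : d.Coprime (Nat.card (Zc E))) (h1 : x ^ d = 1) : x = 1 := by
  have h2 : x ^ Nat.card (Zc E) = 1 := congrArg Subtype.val (pow_card_eq_one' (x := (⟨x, hx⟩ : Zc E)))
  have := pow_gcd_eq_one.mpr ⟨h1, h2⟩
  rwa [hd, pow_one] at this

theorem cop2 (h : Cov E f) : (2 : ℕ).Coprime (Nat.card (Zc E)) :=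
  Nat.coprime_two_left.mpr h.odd

theorem eq_one (h : Cov E f) {x : G} (hx : x ∈ Zc E) (h1 : x * x = 1) : x = 1 :=
  h.eq_one_of_coprime hx h.cop2 (by rw [pow_two, h1])

theorem eq_of_pow (h : Cov E f) {a b : G} (ha : a ∈ E) (hb : b ∈ E) {d : ℕ}
    (hd : d.Coprime (Nat.card (Zc E))) (h1 : a ^ d = 1) (h2 : b ^ d = 1)
    (h3 : ap f a = ap f b) : a = b := by
  have hz := (h.ap_eq ha hb).mp h3
  have h4 : Commute a (a⁻¹ * b) := hz.2 a ha
  have h5 : (a⁻¹ * b) ^ d = 1 := by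
    have := h4.mul_pow d
    rwa [mul_inv_cancel_left, h1, h2, one_mul, eq_comm] at this
  exact inv_mul_eq_one.mp (h.eq_one_of_coprime hz hd h5)

theorem eq_of_sq (h : Cov E f) {a b : G} (ha : a ∈ E) (hb : b ∈ E) (h1 : a * a = 1) (h2 : b * b = 1)
    (h3 : ap f a = ap f b) : a = b :=
  h.eq_of_pow ha hb h.cop2 (by rw [pow_two, h1]) (by rw [pow_two, h2]) h3

theorem comm_of_pow (h : Cov E f) {a e : G} (ha : a ∈ E) (he : e ∈ E) {d : ℕ}
    (hd : d.Coprime (Nat.card (Zc E))) (h1 : a ^ d = 1)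
    (h3 : ap f a * ap f e = ap f e * ap f a) : a * e = e * a := by
  have := h.eq_of_pow ha (E.mul_mem (E.mul_mem he ha) (E.inv_mem he)) hd h1
    (by rw [conj_pow, h1, mul_one, mul_inv_cancel])
    (by rw [ap_conj f ha he, ← h3, mul_inv_cancel_right])
  exact eq_mul_inv_iff_mul_eq.mp this

theorem comm (h : Cov E f) {a e : G} (ha : a ∈ E) (he : e ∈ E) (h1 : a * a = 1)
    (h3 : ap f a * ap f e = ap f e * ap f a) : a * e = e * a :=
  h.comm_of_pow ha he h.cop2 (by rw [pow_two, h1]) h3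

theorem orderOf_ap (h : Cov E f) {a : G} (ha : a ∈ E)
    (hd : (orderOf a).Coprime (Nat.card (Zc E))) : orderOf (ap f a) = orderOf a := by
  refine Nat.dvd_antisymm (orderOf_ap_dvd f ha) (orderOf_dvd_of_pow_eq_one ?_)
  refine h.eq_one_of_coprime ((h.ap_eq_one (E.pow_mem ha _)).mp ?_) hd ?_
  · rw [ap_pow f ha, pow_orderOf_eq_one]
  · rw [← pow_mul, mul_comm, pow_mul, pow_orderOf_eq_one, one_pow]

theorem orderOf_ap_two (h : Cov E f) {a : G} (ha : a ∈ E) (h2 : orderOf a = 2) :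
    orderOf (ap f a) = 2 := by
  rw [h.orderOf_ap ha (h2 ▸ h.cop2), h2]

theorem lift (h : Cov E f) (s : L) (hd : (orderOf s).Coprime (Nat.card (Zc E))) :
    ∃ a ∈ E, ap f a = s ∧ orderOf a = orderOf s := by
  obtain ⟨a, ha, rfl⟩ := h.exists_ap s
  obtain ⟨m, h1, h2⟩ := Nat.chineseRemainder hd 1 0
  have h3 : ap f (a ^ m) = ap f a := by
    rw [ap_pow f ha, pow_eq_pow_iff_modEq.mpr h1, pow_one]
  refine ⟨a ^ m, E.pow_mem ha m, h3, Nat.dvd_antisymm (orderOf_dvd_of_pow_eq_one ?_)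
    (h3 ▸ orderOf_ap_dvd f (E.pow_mem ha m))⟩
  have hz : a ^ orderOf (ap f a) ∈ Zc E := (h.ap_eq_one (E.pow_mem ha _)).mp
    (by rw [ap_pow f ha, pow_orderOf_eq_one])
  obtain ⟨k, hk⟩ := (Nat.modEq_zero_iff_dvd.mp h2)
  have h4 : (a ^ orderOf (ap f a)) ^ Nat.card (Zc E) = 1 :=
    congrArg Subtype.val (pow_card_eq_one' (x := (⟨_, hz⟩ : Zc E)))
  rw [← pow_mul, mul_comm, pow_mul, hk, pow_mul, h4, one_pow]

theorem lift2 (h : Cov E f) {s : L} (hs : orderOf s = 2) : ∃ a ∈ E, ap f a = s ∧ orderOf a = 2 := by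
  obtain ⟨a, ha, h1, h2⟩ := h.lift s (hs ▸ h.cop2)
  exact ⟨a, ha, h1, h2.trans hs⟩

theorem mem_cent_iff (h : Cov E f) {t g : G} (ht : orderOf t = 2) (htE : t ∈ E) (hg : g ∈ E) :
    g ∈ 𝐂[t] ↔ ap f g * ap f t = ap f t * ap f g := by
  rw [mem_centralizer_singleton_iff]
  refine ⟨fun h1 => by rw [← ap_mul f hg htE, h1, ap_mul f htE hg], fun h1 => ?_⟩
  exact (h.comm htE hg (by rw [← pow_two, ← ht, pow_orderOf_eq_one]) h1.symm).symm

theorem pre_cent (h : Cov E f) {t : G} (ht : orderOf t = 2) (htE : t ∈ E) :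
    pre f 𝐂[ap f t] = E ⊓ 𝐂[t] := by
  ext g
  rw [mem_pre, mem_inf, mem_centralizer_singleton_iff]
  exact and_congr_right fun hg => (h.mem_cent_iff ht htE hg).symm

theorem injOn_inv (h : Cov E f) : Set.InjOn (ap f) (H23.GW.Inv E) := fun a ha b hb h3 =>
  h.eq_of_pow ha.1 hb.1 h.cop2 (ha.2 ▸ pow_orderOf_eq_one a) (hb.2 ▸ pow_orderOf_eq_one b) h3

theorem ncard_image (h : Cov E f) {S : Set G} (hS : S ⊆ H23.GW.Inv E) : (ap f '' S).ncard = S.ncard :=
  (h.injOn_inv.mono hS).ncard_image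

theorem image_inv (h : Cov E f) : ap f '' H23.GW.Inv E = {s | orderOf s = 2} := by
  ext s
  constructor
  · rintro ⟨a, ha, rfl⟩
    exact h.orderOf_ap_two ha.1 ha.2
  · intro hs
    obtain ⟨a, ha, h1, h2⟩ := h.lift2 hs
    exact ⟨a, ⟨ha, h2⟩, h1⟩

theorem ncard_inv (h : Cov E f) : (H23.GW.Inv E).ncard = {s : L | orderOf s = 2}.ncard := by
  rw [← h.image_inv, h.ncard_image subset_rfl]

theorem kap_eq (h : Cov E f) {z : G} (hz : z ∈ H23.GW.Inv E) :
    kap E z = {t : L | H29.IsPair (ap f z) t}.ncard := by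
  have hz2 := h.orderOf_ap_two hz.1 hz.2
  rw [kap, ← h.ncard_image (fun a ha => ⟨ha.1.1.1, ha.1.2⟩)]
  congr 1
  ext t
  constructor
  · rintro ⟨a, ⟨⟨⟨h1, h2⟩, h3⟩, h4⟩, rfl⟩
    have h5 := orderOf_eq_prime_iff.mp (h.orderOf_ap_two h1 h3)
    have h6 := orderOf_eq_prime_iff.mp hz2
    exact ⟨by rw [← pow_two, h6.1], h6.2, by rw [← pow_two, h5.1], h5.2,
      fun e => h4 (h.injOn_inv hz ⟨h1, h3⟩ e).symm, ((h.mem_cent_iff hz.2 hz.1 h1).mp h2).symm⟩
  · intro ht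
    obtain ⟨a, ha, rfl, h2⟩ := h.lift2 (orderOf_eq_prime (by rw [pow_two, ht.sq₂]) ht.ne₂)
    exact ⟨a, ⟨⟨⟨ha, (h.mem_cent_iff hz.2 hz.1 ha).mpr ht.comm.symm⟩, h2⟩,
      fun e => ht.ne (by rw [Set.mem_singleton_iff.mp e])⟩, rfl⟩

/-- A pair of commuting involutions lifts. -/
theorem four (h : Cov E f) {a b : G} (ha : a ∈ E) (hb : b ∈ E) (h1 : orderOf a = 2)
    (h2 : orderOf b = 2) (hp : H29.IsPair (ap f a) (ap f b)) : Four (zpowers a ⊔ zpowers b) a b :=
  ⟨h1, h2, fun e => hp.ne (by rw [e]),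
    h.comm ha hb (by rw [← pow_two, ← h1, pow_orderOf_eq_one]) hp.comm, rfl⟩

end Cov

end H77.GW
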